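import Cfsg.Agent.SchurMult.Basic

/-!
# Tools for computing Schur multipliers

* `BilExt β`: the central extension of `G` by `A` with cocycle a bimultiplicative map `β : G →* G →* A`.
* `commutator_le_of_generators`: a normal subgroup containing the commutators of elements which together with the
  centre generate the group contains the commutator subgroup.
-/

set_option autoImplicit false

namespace Cfsg.Agent.SchurMult

universe u v w x

open Subgroup
open scoped commutatorElement

section Gen

variable {Γ : Type*} [Group Γ]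

theorem commutator_le_of_generators (N : Subgroup Γ) [N.Normal] (S : Set Γ)
    (hS : closure (S ∪ (center Γ : Set Γ)) = ⊤) (h : ∀ s ∈ S, ∀ t ∈ S, ⁅s, t⁆ ∈ N) :
    commutator Γ ≤ N := by
  have key : ∀ g : Γ, (∀ s ∈ S, ⁅g, s⁆ ∈ N) → ∀ k : Γ, ⁅g, k⁆ ∈ N := by
    intro g hg k
    let H : Subgroup Γ := (Subgroup.centralizer {(QuotientGroup.mk g : Γ ⧸ N)}).comap (QuotientGroup.mk' N)
    have hmem : ∀ k : Γ, k ∈ H ↔ ⁅g, k⁆ ∈ N := by
      intro k
      rw [Subgroup.mem_comap, Subgroup.mem_centralizer_singleton_iff, ← QuotientGroup.eq_one_iff]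
      have : (QuotientGroup.mk ⁅g, k⁆ : Γ ⧸ N) = ⁅(QuotientGroup.mk g : Γ ⧸ N), QuotientGroup.mk k⁆ := rfl
      rw [this, commutatorElement_eq_one_iff_mul_comm]
      exact eq_comm
    have hH : H = ⊤ := by
      rw [eq_top_iff, ← hS, Subgroup.closure_le]
      rintro x (hx | hx)
      · exact (hmem x).mpr (hg x hx)
      · refine (hmem x).mpr ?_
        have : ⁅g, x⁆ = 1 := by
          rw [commutatorElement_eq_one_iff_mul_comm]
          exact Subgroup.mem_center_iff.mp hx g
        rw [this]; exact N.one_mem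
    exact (hmem k).mp (by rw [hH]; exact mem_top k)
  rw [commutator_def, Subgroup.commutator_le]
  intro a _ b _
  refine key a (fun s hs => ?_) b
  have h1 : ⁅s, a⁆ ∈ N := key s (fun t ht => h s hs t ht) a
  rw [← commutatorElement_inv]
  exact N.inv_mem h1

/-- generators of the quotient together with the centre generate. -/
theorem closure_union_center {Q : Type*} [Group Q] (σ : Γ →* Q) (hc : σ.ker ≤ center Γ) (S : Set Γ)
    (hS : closure (σ '' S) = ⊤) : closure (S ∪ (center Γ : Set Γ)) = ⊤ := by
  rw [eq_top_iff]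
  intro x _
  have h1 : σ x ∈ (closure S).map σ := by
    rw [MonoidHom.map_closure, hS]; exact mem_top _
  obtain ⟨y, hy, hyx⟩ := h1
  have h2 : y⁻¹ * x ∈ center Γ := hc (by rw [MonoidHom.mem_ker, map_mul, map_inv, hyx]; simp)
  have h3 : x = y * (y⁻¹ * x) := by group
  rw [h3]
  refine mul_mem (Subgroup.closure_mono Set.subset_union_left hy) (Subgroup.subset_closure (Or.inr h2))

/-- commutators with a central value are multiplicative in the powers. -/
theorem commutator_pow_right_of_central (x y : Γ) (h : ⁅x, y⁆ ∈ center Γ) (n : ℕ) : ⁅x, y ^ n⁆ = ⁅x, y⁆ ^ n := by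
  induction n with
  | zero => simp
  | succ n ih =>
    have hc := Subgroup.mem_center_iff.mp h
    have e1 : ⁅x, y ^ (n + 1)⁆ = ⁅x, y ^ n⁆ * (y ^ n * ⁅x, y⁆ * (y ^ n)⁻¹) := by
      rw [commutatorElement_def, commutatorElement_def, commutatorElement_def, pow_succ]; group
    rw [e1, ih, hc (y ^ n), mul_inv_cancel_right, pow_succ]

theorem commutator_pow_left_of_central (x y : Γ) (h : ⁅x, y⁆ ∈ center Γ) (n : ℕ) : ⁅x ^ n, y⁆ = ⁅x, y⁆ ^ n := by
  have h' : ⁅y, x⁆ ∈ center Γ := by
    rw [← commutatorElement_inv]; exact (center Γ).inv_mem h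
  rw [← commutatorElement_inv, commutator_pow_right_of_central y x h' n, ← commutatorElement_inv x y, inv_pow,
    inv_inv]

theorem commutator_mul_right_of_central (x y z : Γ) (h : ⁅x, z⁆ ∈ center Γ) : ⁅x, y * z⁆ = ⁅x, y⁆ * ⁅x, z⁆ := by
  have hc := Subgroup.mem_center_iff.mp h
  have e1 : ⁅x, y * z⁆ = ⁅x, y⁆ * (y * ⁅x, z⁆ * y⁻¹) := by
    rw [commutatorElement_def, commutatorElement_def, commutatorElement_def]; group
  rw [e1, hc y, mul_inv_cancel_right]

theorem commutator_mul_left_of_central (x y z : Γ) (h : ⁅y, z⁆ ∈ center Γ) : ⁅x * y, z⁆ = ⁅x, z⁆ * ⁅y, z⁆ := by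
  have hc := Subgroup.mem_center_iff.mp h
  have e1 : ⁅x * y, z⁆ = (x * ⁅y, z⁆ * x⁻¹) * ⁅x, z⁆ := by
    rw [commutatorElement_def, commutatorElement_def, commutatorElement_def]; group
  rw [e1, hc x, mul_inv_cancel_right, ← hc]

end Gen

section Bil

variable {G : Type*} {A : Type*} [Group G] [CommGroup A]

/-- The central extension of `G` by `A` given by the bimultiplicative cocycle `β`. -/
@[ext]
structure BilExt (β : G →* G →* A) where
  /-- the component in the base -/
  fst : G
  /-- the component in the kernel -/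
  snd : A

namespace BilExt

variable (β : G →* G →* A)

instance instMulBilExt : Mul (BilExt β) := ⟨fun x y => ⟨x.fst * y.fst, x.snd * y.snd * β x.fst y.fst⟩⟩
instance instOneBilExt : One (BilExt β) := ⟨⟨1, 1⟩⟩
instance instInvBilExt : Inv (BilExt β) := ⟨fun x => ⟨x.fst⁻¹, x.snd⁻¹ * β x.fst x.fst⟩⟩

@[simp] theorem mul_fst (x y : BilExt β) : (x * y).fst = x.fst * y.fst := rfl
@[simp] theorem mul_snd (x y : BilExt β) : (x * y).snd = x.snd * y.snd * β x.fst y.fst := rfl
@[simp] theorem one_fst : (1 : BilExt β).fst = 1 := rfl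
@[simp] theorem one_snd : (1 : BilExt β).snd = 1 := rfl
@[simp] theorem inv_fst (x : BilExt β) : (x⁻¹).fst = x.fst⁻¹ := rfl
@[simp] theorem inv_snd (x : BilExt β) : (x⁻¹).snd = x.snd⁻¹ * β x.fst x.fst := rfl

instance instGroupBilExt : Group (BilExt β) :=
  Group.ofLeftAxioms
    (by
      intro x y z
      ext
      · simp [mul_assoc]
      · have e1 : β (x.fst * y.fst) z.fst = β x.fst z.fst * β y.fst z.fst := by
          rw [map_mul]; rfl
        have e2 : β x.fst (y.fst * z.fst) = β x.fst y.fst * β x.fst z.fst := map_mul _ _ _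
        show x.snd * y.snd * β x.fst y.fst * z.snd * β (x.fst * y.fst) z.fst
          = x.snd * (y.snd * z.snd * β y.fst z.fst) * β x.fst (y.fst * z.fst)
        rw [e1, e2]
        ac_rfl)
    (by intro x; ext <;> simp)
    (by
      intro x; ext
      · simp
      · simp only [mul_snd, inv_fst, inv_snd, map_inv, MonoidHom.inv_apply, one_snd]
        rw [mul_assoc (x.snd⁻¹), mul_comm (β x.fst x.fst), ← mul_assoc, inv_mul_cancel, one_mul, mul_inv_cancel])

/-- The projection. -/
def proj : BilExt β →* G where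
  toFun x := x.fst
  map_one' := rfl
  map_mul' _ _ := rfl

/-- The inclusion of the kernel. -/
def incl : A →* BilExt β where
  toFun a := ⟨1, a⟩
  map_one' := rfl
  map_mul' a b := by ext <;> simp

@[simp] theorem proj_apply (x : BilExt β) : proj β x = x.fst := rfl
@[simp] theorem incl_fst (a : A) : (incl β a).fst = 1 := rfl
@[simp] theorem incl_snd (a : A) : (incl β a).snd = a := rfl

theorem proj_surjective : Function.Surjective (proj β) := fun g => ⟨⟨g, 1⟩, rfl⟩

theorem incl_injective : Function.Injective (incl β) := fun _ _ h => congrArg BilExt.snd h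

theorem incl_mem_center (a : A) : incl β a ∈ center (BilExt β) := by
  rw [Subgroup.mem_center_iff]
  intro x
  ext
  · simp
  · simp [mul_comm]

theorem ker_proj : (proj β).ker = (incl β).range := by
  ext x
  constructor
  · intro hx
    refine ⟨x.snd, ?_⟩
    ext
    · exact (MonoidHom.mem_ker.mp hx).symm
    · rfl
  · rintro ⟨a, rfl⟩
    rfl

theorem ker_proj_le_center : (proj β).ker ≤ center (BilExt β) := by
  rw [ker_proj]
  rintro _ ⟨a, rfl⟩
  exact incl_mem_center β a

/-- The kernel of the projection. -/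
noncomputable def kerEquiv : A ≃* (proj β).ker :=
  (MonoidHom.ofInjective (incl_injective β)).trans (MulEquiv.subgroupCongr (ker_proj β).symm)

instance finite_bilExt [Finite G] [Finite A] : Finite (BilExt β) :=
  Finite.of_injective (fun x : BilExt β => (x.fst, x.snd)) (fun x y h => by
    ext
    · exact congrArg Prod.fst h
    · exact congrArg Prod.snd h)

/-- The commutators of elements over commuting elements of the base. -/
theorem incl_mem_commutator (g h : G) (hgh : g * h = h * g) :
    incl β (β g h * (β h g)⁻¹) ∈ commutator (BilExt β) := by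
  have h1 : incl β (β g h * (β h g)⁻¹) = ⁅(⟨g, 1⟩ : BilExt β), ⟨h, 1⟩⁆ := by
    rw [commutatorElement_def, eq_mul_inv_iff_mul_eq, eq_mul_inv_iff_mul_eq]
    ext
    · simp [hgh]
    · simp
  rw [h1]
  exact Subgroup.commutator_mem_commutator (mem_top _) (mem_top _)

/-- A criterion for the extension to be stem. -/
theorem isStemExtension_proj
    (hgen : closure {a : A | ∃ g h : G, g * h = h * g ∧ a = β g h * (β h g)⁻¹} = ⊤) :
    IsStemExtension (proj β) := by
  refine ⟨proj_surjective β, ker_proj_le_center β, ?_⟩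
  rw [ker_proj, MonoidHom.range_eq_map, ← hgen, MonoidHom.map_closure, Subgroup.closure_le]
  rintro _ ⟨a, ⟨g, h, hgh, rfl⟩, rfl⟩
  exact incl_mem_commutator β g h hgh

end BilExt

end Bil

end Cfsg.Agent.SchurMult
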