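import Cfsg.Agent.SchurMult.Projective
import Cfsg.Agent.Char.CentralChar

set_option autoImplicit false

namespace Cfsg.Agent.SchurMult

open Cfsg Cfsg.Agent.Char Cfsg.Agent.CharBase

universe u

/-- degrees of irreducible characters over `λ` are divisible by the order of `λ` if `Z ≤ Γ'` -/
theorem order_dvd_degree {Γ : Type u} [Group Γ] [Finite Γ] (Z : Subgroup Γ) (hZc : Z ≤ Subgroup.center Γ)
    (hZd : Z ≤ commutator Γ) (lam : Z →* ℂˣ) (z₀ : Z) {n : ℕ} (ρ : Representation ℂ Γ (Fin n → ℂ))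
    (hρ : ρ.IsIrreducible) (hlam : ∀ z : Z, ρ.character z = (lam z : ℂ) * ρ.character 1) :
    orderOf (lam z₀) ∣ n := by
  have hcen : ∀ g : Γ, ρ (z₀ : Γ) * ρ g = ρ g * ρ (z₀ : Γ) := fun g => by
    rw [← map_mul, ← map_mul, Subgroup.mem_center_iff.mp (hZc z₀.2) g]
  obtain ⟨c, hc⟩ := exists_smul_one_of_commute ρ hρ (ρ (z₀ : Γ)) hcen
  have h1 : ρ.character 1 ≠ 0 := irr_one_ne_zero ⟨n, ρ, hρ, rfl⟩
  have hcl : c = (lam z₀ : ℂ) := by
    have h2 := hlam z₀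
    have h3 : ρ.character (z₀ : Γ) = c * ρ.character 1 := by
      simp only [Representation.character, map_one, hc, map_smul, smul_eq_mul]
    rw [h3] at h2
    exact mul_right_cancel₀ h1 h2
  -- determinant
  let D : Γ →* ℂ := (LinearMap.det : ((Fin n → ℂ) →ₗ[ℂ] (Fin n → ℂ)) →* ℂ).comp ρ
  have hD : ∀ x ∈ commutator Γ, D x = 1 := by
    intro x hx
    have h4 : commutator Γ ≤ (MonoidHom.toHomUnits D).ker := Abelianization.commutator_subset_ker _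
    have h5 := h4 hx
    rw [MonoidHom.mem_ker] at h5
    have h6 := congrArg (fun u : ℂˣ => (u : ℂ)) h5
    simpa using h6
  have h7 := hD z₀ (hZd z₀.2)
  have h8 : D (z₀ : Γ) = c ^ n := by
    show LinearMap.det (ρ (z₀ : Γ)) = c ^ n
    rw [hc, LinearMap.det_smul]
    simp
  rw [h8, hcl] at h7
  apply orderOf_dvd_of_pow_eq_one
  apply Units.ext
  simpa using h7

theorem sum_over_central {Γ : Type u} [Group Γ] [Finite Γ] (Z : Subgroup Γ) (hZc : Z ≤ Subgroup.center Γ)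
    (lam : Z →* ℂˣ) :
    ∃ S : Set (IrrCharacter Γ), (∀ χ ∈ S, ∀ z : Z, (χ : Γ → ℂ) z = (lam z : ℂ) * (χ : Γ → ℂ) 1) ∧
      ∃ T : Finset (IrrCharacter Γ), (∀ χ ∈ T, χ ∈ S) ∧ (Z.index : ℂ) = ∑ χ ∈ T, (χ : Γ → ℂ) 1 * (χ : Γ → ℂ) 1 := by
  classical
  have hΓ := Fintype.ofFinite Γ
  have hirr := Fintype.ofFinite (IrrCharacter Γ)
  have hZf := Fintype.ofFinite Z
  let S : Set (IrrCharacter Γ) := {χ | ∀ z : Z, (χ : Γ → ℂ) z = (lam z : ℂ) * (χ : Γ → ℂ) 1}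
  refine ⟨S, fun χ hχ => hχ, Finset.univ.filter (fun χ => χ ∈ S), fun χ hχ => (Finset.mem_filter.1 hχ).2, ?_⟩
  have key : ∀ χ : IrrCharacter Γ, ∑ z : Z, ((lam z)⁻¹ : ℂˣ) * (χ : Γ → ℂ) z =
      if χ ∈ S then (Nat.card Z : ℂ) * (χ : Γ → ℂ) 1 else 0 := by
    intro χ
    have h1 : (χ : Γ → ℂ) 1 ≠ 0 := irr_one_ne_zero χ.2
    have hc : ∀ z : Z, ∀ x : Γ, (χ : Γ → ℂ) (z * x) = ((χ : Γ → ℂ) z / (χ : Γ → ℂ) 1) * (χ : Γ → ℂ) x := by
      intro z x
      obtain ⟨c, _, hc1, hc2⟩ := CC.exists_scalar χ.2 (z : Γ) (hZc z.2)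
      rw [hc2 x, hc1]
    let f : Z →* ℂ :=
      { toFun := fun z => ((lam z)⁻¹ : ℂˣ) * ((χ : Γ → ℂ) z / (χ : Γ → ℂ) 1)
        map_one' := by
          simp [div_self h1]
        map_mul' := by
          intro a b
          have h2 := hc a b
          rw [map_mul, mul_inv, Subgroup.coe_mul, h2]
          push_cast
          ring }
    have hf : ∀ z : Z, ((lam z)⁻¹ : ℂˣ) * (χ : Γ → ℂ) z = f z * (χ : Γ → ℂ) 1 := by
      intro z
      show _ = ((lam z)⁻¹ : ℂˣ) * ((χ : Γ → ℂ) z / (χ : Γ → ℂ) 1) * (χ : Γ → ℂ) 1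
      rw [mul_assoc, div_mul_cancel₀ _ h1]
    rw [Finset.sum_congr rfl (fun z _ => hf z), ← Finset.sum_mul]
    by_cases hS : χ ∈ S
    · rw [if_pos hS]
      have h3 : ∀ z : Z, f z = 1 := by
        intro z
        show ((lam z)⁻¹ : ℂˣ) * ((χ : Γ → ℂ) z / (χ : Γ → ℂ) 1) = 1
        rw [hS z, mul_div_assoc, div_self h1, mul_one]
        simp
      rw [Finset.sum_congr rfl (fun z _ => h3 z), Finset.sum_const, Finset.card_univ, nsmul_eq_mul, mul_one,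
        Nat.card_eq_fintype_card]
    · rw [if_neg hS]
      have h3 : f ≠ 1 := by
        intro h4
        apply hS
        intro z
        have h5 : ((lam z)⁻¹ : ℂˣ) * ((χ : Γ → ℂ) z / (χ : Γ → ℂ) 1) = 1 := congrArg (fun g : Z →* ℂ => g z) h4
        have h6 : (lam z : ℂ) * (((lam z)⁻¹ : ℂˣ) : ℂ) = 1 := by simp
        have h7 : (χ : Γ → ℂ) z / (χ : Γ → ℂ) 1 = (lam z : ℂ) := by
          calc (χ : Γ → ℂ) z / (χ : Γ → ℂ) 1 = ((lam z : ℂ) * (((lam z)⁻¹ : ℂˣ) : ℂ)) * ((χ : Γ → ℂ) z / (χ : Γ → ℂ) 1) := by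
                rw [h6, one_mul]
            _ = (lam z : ℂ) * ((((lam z)⁻¹ : ℂˣ) : ℂ) * ((χ : Γ → ℂ) z / (χ : Γ → ℂ) 1)) := by ring
            _ = (lam z : ℂ) := by rw [h5, mul_one]
        rw [← h7, div_mul_cancel₀ _ h1]
      rw [sum_hom_units_eq_zero f h3, zero_mul]
  have hreg : ∀ z : Z, ∑ χ : IrrCharacter Γ, (χ : Γ → ℂ) 1 * (χ : Γ → ℂ) z =
      if z = 1 then (Nat.card Γ : ℂ) else 0 := by
    intro z
    rw [sum_degree_mul (z : Γ)]
    by_cases hz : z = 1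
    · rw [if_pos hz, if_pos (by rw [hz]; rfl)]
    · have hz' : (z : Γ) ≠ 1 := fun h => hz (Subtype.ext h)
      rw [if_neg hz, if_neg hz']
  have h1 : ∑ z : Z, ((lam z)⁻¹ : ℂˣ) * (∑ χ : IrrCharacter Γ, (χ : Γ → ℂ) 1 * (χ : Γ → ℂ) z) = (Nat.card Γ : ℂ) := by
    rw [Finset.sum_eq_single (1 : Z)]
    · rw [hreg, if_pos rfl]; simp
    · intro z _ hz
      rw [hreg, if_neg hz, mul_zero]
    · intro h; exact absurd (Finset.mem_univ _) h
  have h2 : ∑ z : Z, ((lam z)⁻¹ : ℂˣ) * (∑ χ : IrrCharacter Γ, (χ : Γ → ℂ) 1 * (χ : Γ → ℂ) z) =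
      (Nat.card Z : ℂ) * ∑ χ ∈ Finset.univ.filter (fun χ => χ ∈ S), (χ : Γ → ℂ) 1 * (χ : Γ → ℂ) 1 := by
    calc ∑ z : Z, ((lam z)⁻¹ : ℂˣ) * (∑ χ : IrrCharacter Γ, (χ : Γ → ℂ) 1 * (χ : Γ → ℂ) z)
        = ∑ z : Z, ∑ χ : IrrCharacter Γ, (χ : Γ → ℂ) 1 * (((lam z)⁻¹ : ℂˣ) * (χ : Γ → ℂ) z) := by
          apply Finset.sum_congr rfl
          intro z _
          rw [Finset.mul_sum]
          apply Finset.sum_congr rfl
          intro χ _
          ring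
      _ = ∑ χ : IrrCharacter Γ, (χ : Γ → ℂ) 1 * ∑ z : Z, (((lam z)⁻¹ : ℂˣ) * (χ : Γ → ℂ) z) := by
          rw [Finset.sum_comm]
          apply Finset.sum_congr rfl
          intro χ _
          rw [Finset.mul_sum]
      _ = ∑ χ : IrrCharacter Γ, if χ ∈ S then (Nat.card Z : ℂ) * ((χ : Γ → ℂ) 1 * (χ : Γ → ℂ) 1) else 0 := by
          apply Finset.sum_congr rfl
          intro χ _
          rw [key]
          split_ifs
          · ring
          · ring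
      _ = _ := by
          rw [← Finset.sum_filter, Finset.mul_sum]
  rw [h1] at h2
  have h3 : (Nat.card Γ : ℂ) = (Nat.card Z : ℂ) * (Z.index : ℂ) := by
    rw [← Nat.cast_mul, Subgroup.card_mul_index]
  rw [h3] at h2
  have h4 : (Nat.card Z : ℂ) ≠ 0 := by
    exact_mod_cast (Nat.card_pos (α := Z)).ne'
  exact mul_left_cancel₀ h4 h2

/-- The square of the order of a linear character of `Z ≤ Γ' ∩ Z(Γ)` divides `|Γ : Z|`. -/
theorem sq_order_dvd_index {Γ : Type u} [Group Γ] [Finite Γ] (Z : Subgroup Γ) (hZc : Z ≤ Subgroup.center Γ)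
    (hZd : Z ≤ commutator Γ) (lam : Z →* ℂˣ) (z₀ : Z) : orderOf (lam z₀) ^ 2 ∣ Z.index := by
  classical
  obtain ⟨S, hS, T, hT, hsum⟩ := sum_over_central Z hZc lam
  have h1 : ∀ χ : IrrCharacter Γ, χ ∈ T → ∃ n : ℕ, orderOf (lam z₀) ∣ n ∧ (χ : Γ → ℂ) 1 = n := by
    rintro ⟨χ, n, ρ, hρ, rfl⟩ hχ
    refine ⟨n, order_dvd_degree Z hZc hZd lam z₀ ρ hρ (hS _ (hT _ hχ)), ?_⟩
    show ρ.character 1 = n
    rw [Representation.char_one]
    simp
  choose! d hd1 hd2 using h1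
  have h2 : (Z.index : ℂ) = ((∑ χ ∈ T, d χ * d χ : ℕ) : ℂ) := by
    rw [hsum]
    push_cast
    apply Finset.sum_congr rfl
    intro χ hχ
    rw [hd2 χ hχ]
  have h3 : Z.index = ∑ χ ∈ T, d χ * d χ := by exact_mod_cast h2
  rw [h3, sq]
  apply Finset.dvd_sum
  intro χ hχ
  exact Nat.mul_dvd_mul (hd1 χ hχ) (hd1 χ hχ)

theorem exists_faithful_on {B : Type*} [CommGroup B] [Finite B] (b : B) :
    ∃ lam : B →* ℂˣ, orderOf (lam b) = orderOf b := by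
  have hb : 0 < orderOf b := orderOf_pos b
  have hNZ : NeZero (orderOf b) := ⟨hb.ne'⟩
  have hζ := Complex.isPrimitiveRoot_exp (orderOf b) hb.ne'
  obtain ⟨ζ, hζ'⟩ : ∃ ζ : ℂˣ, orderOf ζ = orderOf b := by
    refine ⟨Units.mk0 _ (hζ.ne_zero hb.ne'), ?_⟩
    rw [← orderOf_units]
    exact hζ.eq_orderOf.symm
  have hcard : Nat.card (Subgroup.zpowers b) = Nat.card (Subgroup.zpowers ζ) := by
    rw [Nat.card_zpowers, Nat.card_zpowers, hζ']
  let e := mulEquivOfCyclicCardEq hcard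
  obtain ⟨lam, hlam⟩ := exists_extension_units (Subgroup.zpowers b).subtype Subtype.val_injective
    ((Subgroup.zpowers ζ).subtype.comp e.toMonoidHom)
  refine ⟨lam, ?_⟩
  have h1 : lam b = ((Subgroup.zpowers ζ).subtype.comp e.toMonoidHom) ⟨b, Subgroup.mem_zpowers b⟩ := by
    rw [← hlam]; rfl
  rw [h1]
  have h2 := orderOf_injective ((Subgroup.zpowers ζ).subtype.comp e.toMonoidHom)
    (Subtype.val_injective.comp e.injective) ⟨b, Subgroup.mem_zpowers b⟩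
  rw [h2, Subgroup.orderOf_mk]

end Cfsg.Agent.SchurMult
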