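import Cfsg.Agent.SchurMult.Basic

/-!
# Projective representations and Schur covers
-/

set_option autoImplicit false

namespace Cfsg.Agent.SchurMult

universe u v w x

open Subgroup
open scoped commutatorElement

/-- `ℂˣ` is injective. -/
theorem exists_extension_units {C B : Type*} [CommGroup C] [CommGroup B] (i : C →* B)
    (hi : Function.Injective i) (f : C →* ℂˣ) : ∃ g : B →* ℂˣ, g.comp i = f := by
  have hroot : ∀ n : ℕ, n ≠ 0 → Function.Surjective (fun z : ℂˣ => z ^ n) := by
    intro n hn z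
    obtain ⟨w, hw⟩ := IsAlgClosed.exists_pow_nat_eq (z : ℂ) (Nat.pos_of_ne_zero hn)
    have hw0 : w ≠ 0 := by
      rintro rfl
      rw [zero_pow hn] at hw
      exact z.ne_zero hw.symm
    exact ⟨Units.mk0 w hw0, Units.ext (by simpa using hw)⟩
  have hrootZ : ∀ n : ℤ, n ≠ 0 → Function.Surjective (fun z : Additive ℂˣ => n • z) := by
    intro n hn z
    obtain ⟨w, hw⟩ := hroot n.natAbs (Int.natAbs_ne_zero.mpr hn) (Additive.toMul z)
    rcases Int.natAbs_eq n with h | h
    · refine ⟨Additive.ofMul w, ?_⟩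
      show n • Additive.ofMul w = z
      rw [h, natCast_zsmul, ← ofMul_pow]
      exact congrArg Additive.ofMul hw
    · refine ⟨- Additive.ofMul w, ?_⟩
      show n • (- Additive.ofMul w) = z
      rw [h, neg_smul, smul_neg, neg_neg, natCast_zsmul, ← ofMul_pow]
      exact congrArg Additive.ofMul hw
  let _ : DivisibleBy (Additive ℂˣ) ℤ := divisibleByOfSMulRightSurj _ _ (fun {n} hn => hrootZ n hn)
  have hb : Module.Baer ℤ (Additive ℂˣ) := Module.Baer.of_divisible _
  obtain ⟨h, hh⟩ := hb.extension_property_addMonoidHom (MonoidHom.toAdditive i) hi (MonoidHom.toAdditive f)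
  refine ⟨MonoidHom.toAdditive.symm h, ?_⟩
  ext c
  have := DFunLike.congr_fun hh (Additive.ofMul c)
  exact congrArg (fun z : Additive ℂˣ => ((Additive.toMul z : ℂˣ) : ℂ)) this

/-- Homomorphisms which agree modulo a central subgroup agree on the commutator subgroup. -/
theorem eq_on_commutator {E G : Type*} [Group E] [Group G] (a b : E →* G)
    (h : ∀ x, (b x)⁻¹ * a x ∈ center G) : ∀ x ∈ commutator E, a x = b x := by
  have h1 : commutator E ≤ a.eqLocus b := by
    rw [commutator_def, Subgroup.commutator_le]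
    intro x _ y _
    show a ⁅x, y⁆ = b ⁅x, y⁆
    rw [map_commutatorElement, map_commutatorElement]
    have hk := Subgroup.mem_center_iff.mp (h x)
    have hl := Subgroup.mem_center_iff.mp (h y)
    set k := (b x)⁻¹ * a x with hkd
    set l := (b y)⁻¹ * a y with hld
    have ha : a x = b x * k := by rw [hkd]; group
    have hb : a y = b y * l := by rw [hld]; group
    rw [ha, hb, commutatorElement_def, commutatorElement_def]
    have e1 : (b x * k) * (b y * l) * (b x * k)⁻¹ * (b y * l)⁻¹
        = b x * (k * (b y * l)) * k⁻¹ * (b x)⁻¹ * (l⁻¹ * (b y)⁻¹) := by group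
    rw [e1, ← hk (b y * l)]
    have e2 : b x * (b y * l * k) * k⁻¹ * (b x)⁻¹ * (l⁻¹ * (b y)⁻¹)
        = b x * b y * (l * (b x)⁻¹) * l⁻¹ * (b y)⁻¹ := by group
    rw [e2, ← hl (b x)⁻¹]
    group
  intro x hx
  exact h1 hx

/-- The representation induced from a linear character of a central subgroup. -/
theorem exists_rep_of_central_character {Γ : Type*} [Group Γ] [Finite Γ] (Z : Subgroup Γ) (hZ : Z ≤ center Γ)
    (χ : Z →* ℂˣ) : ∃ (n : ℕ) (β : Γ →* GL (Fin n) ℂ), 0 < n ∧
      ∀ z : Z, β z = Matrix.GeneralLinearGroup.scalar (Fin n) (χ z) := by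
  classical
  let V : Submodule ℂ (Γ → ℂ) :=
    { carrier := {f | ∀ (z : Z) (x : Γ), f (z * x) = χ z * f x}
      add_mem' := by
        intro a b ha hb z x
        simp only [Pi.add_apply, ha z x, hb z x]; ring
      zero_mem' := by intro z x; simp
      smul_mem' := by
        intro c a ha z x
        simp only [Pi.smul_apply, smul_eq_mul, ha z x]; ring }
  have hV : ∀ f : Γ → ℂ, f ∈ V ↔ ∀ (z : Z) (x : Γ), f (z * x) = χ z * f x := fun f => Iff.rfl
  let ρ : Γ →* (V →ₗ[ℂ] V) :=
    { toFun := fun g =>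
        { toFun := fun f => ⟨fun x => f.1 (x * g), by
            intro z x
            show f.1 (z * x * g) = χ z * f.1 (x * g)
            rw [mul_assoc]
            exact f.2 z (x * g)⟩
          map_add' := fun a b => rfl
          map_smul' := fun c a => rfl }
      map_one' := by
        ext f x
        show f.1 (x * 1) = f.1 x
        rw [mul_one]
      map_mul' := by
        intro a b
        ext f x
        show f.1 (x * (a * b)) = f.1 (x * a * b)
        rw [mul_assoc] }
  have hρ : ∀ z : Z, ρ z = (χ z : ℂ) • (LinearMap.id : V →ₗ[ℂ] V) := by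
    intro z
    ext f x
    show f.1 (x * z) = χ z * f.1 x
    rw [Subgroup.mem_center_iff.mp (hZ z.2) x]
    exact f.2 z x
  let b := Module.finBasis ℂ V
  let β₀ : Γ →* Matrix (Fin (Module.finrank ℂ V)) (Fin (Module.finrank ℂ V)) ℂ :=
    ((LinearMap.toMatrixAlgEquiv b : (V →ₗ[ℂ] V) ≃ₐ[ℂ] _) : (V →ₗ[ℂ] V) →* _).comp ρ
  refine ⟨Module.finrank ℂ V, β₀.toHomUnits, ?_, ?_⟩
  · rw [Module.finrank_pos_iff]
    let f₀ : Γ → ℂ := fun x => if h : x ∈ Z then (χ ⟨x, h⟩ : ℂ) else 0
    have hf₀ : f₀ ∈ V := by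
      rw [hV]
      intro z x
      by_cases h : x ∈ Z
      · have h' : (z : Γ) * x ∈ Z := Z.mul_mem z.2 h
        simp only [f₀, dif_pos h, dif_pos h']
        have : (⟨(z : Γ) * x, h'⟩ : Z) = z * ⟨x, h⟩ := rfl
        rw [this, map_mul]; rfl
      · have h' : ¬ (z : Γ) * x ∈ Z := fun h' => h (by
          have := Z.mul_mem (Z.inv_mem z.2) h'
          simpa using this)
        simp only [f₀, dif_neg h, dif_neg h', mul_zero]
    refine ⟨⟨⟨f₀, hf₀⟩, 0, ?_⟩⟩
    intro h
    have h1 : f₀ 1 = 0 := congrFun (congrArg Subtype.val h) 1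
    simp only [f₀, dif_pos Z.one_mem] at h1
    exact (χ _).ne_zero h1
  · intro z
    apply Units.ext
    show (LinearMap.toMatrixAlgEquiv b) (ρ z) = _
    rw [hρ, map_smul]
    have : (LinearMap.toMatrixAlgEquiv b) LinearMap.id = 1 := map_one _
    rw [this]
    show _ = Matrix.scalar _ (χ z : ℂ)
    rw [Matrix.smul_one_eq_diagonal]; rfl

end Cfsg.Agent.SchurMult
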