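import Cfsg.Agent.SchurMult.Tools

/-!
# The Schur multiplier of a direct product
-/

set_option autoImplicit false

namespace Cfsg.Agent.SchurMult

universe u v w x

open Subgroup TensorProduct
open scoped commutatorElement

/-- `Q₁ᵃᵇ ⊗ Q₂ᵃᵇ`, multiplicatively. -/
abbrev AbTensor (Q₁ : Type u) (Q₂ : Type v) [Group Q₁] [Group Q₂] : Type (max u v) :=
  Multiplicative (TensorProduct ℤ (Additive (Abelianization Q₁)) (Additive (Abelianization Q₂)))

/-- The pure tensor of two group elements. -/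
def abTmul {Q₁ : Type u} {Q₂ : Type v} [Group Q₁] [Group Q₂] (a : Q₁) (b : Q₂) : AbTensor Q₁ Q₂ :=
  Multiplicative.ofAdd ((Additive.ofMul (Abelianization.of a)) ⊗ₜ[ℤ] (Additive.ofMul (Abelianization.of b)))

section

variable {Q₁ : Type u} {Q₂ : Type v} [Group Q₁] [Group Q₂]

theorem abTmul_mul_left (a a' : Q₁) (b : Q₂) : abTmul (a * a') b = abTmul a b * abTmul a' b := by
  unfold abTmul
  rw [map_mul, ofMul_mul, TensorProduct.add_tmul, ofAdd_add]

theorem abTmul_mul_right (a : Q₁) (b b' : Q₂) : abTmul a (b * b') = abTmul a b * abTmul a b' := by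
  unfold abTmul
  rw [map_mul, ofMul_mul, TensorProduct.tmul_add, ofAdd_add]

theorem abTmul_one_left (b : Q₂) : abTmul (1 : Q₁) b = 1 := by
  unfold abTmul
  rw [map_one, ofMul_one, TensorProduct.zero_tmul, ofAdd_zero]

theorem abTmul_one_right (a : Q₁) : abTmul a (1 : Q₂) = 1 := by
  unfold abTmul
  rw [map_one, ofMul_one, TensorProduct.tmul_zero, ofAdd_zero]

theorem closure_abTmul : Subgroup.closure {t : AbTensor Q₁ Q₂ | ∃ a b, t = abTmul a b} = ⊤ := by
  rw [eq_top_iff]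
  intro t _
  have h : ∀ s : TensorProduct ℤ (Additive (Abelianization Q₁)) (Additive (Abelianization Q₂)),
      Multiplicative.ofAdd s ∈ Subgroup.closure {t : AbTensor Q₁ Q₂ | ∃ a b, t = abTmul a b} := by
    intro s
    induction s using TensorProduct.induction_on with
    | zero => rw [ofAdd_zero]; exact one_mem _
    | tmul x y =>
      apply Subgroup.subset_closure
      obtain ⟨a, ha⟩ := QuotientGroup.mk_surjective (s := commutator Q₁) (Additive.toMul x)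
      obtain ⟨b, hb⟩ := QuotientGroup.mk_surjective (s := commutator Q₂) (Additive.toMul y)
      refine ⟨a, b, ?_⟩
      unfold abTmul
      have ha' : x = Additive.ofMul (Abelianization.of a) := congrArg Additive.ofMul ha.symm
      have hb' : y = Additive.ofMul (Abelianization.of b) := congrArg Additive.ofMul hb.symm
      rw [ha', hb']
    | add x y hx hy => rw [ofAdd_add]; exact mul_mem hx hy
  exact h (Multiplicative.toAdd t)

instance finite_abTensor [Finite Q₁] [Finite Q₂] : Finite (AbTensor Q₁ Q₂) := by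
  have h1 : Module.Finite ℤ (Additive (Abelianization Q₁)) := by
    rw [Module.Finite.iff_addGroup_fg]; infer_instance
  have h2 : Module.Finite ℤ (Additive (Abelianization Q₂)) := by
    rw [Module.Finite.iff_addGroup_fg]; infer_instance
  have h3 : Module.Finite ℤ (TensorProduct ℤ (Additive (Abelianization Q₁)) (Additive (Abelianization Q₂))) :=
    Module.Finite.tensorProduct ℤ _ _
  have h4 : Finite (TensorProduct ℤ (Additive (Abelianization Q₁)) (Additive (Abelianization Q₂))) := by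
    apply Module.finite_of_fg_torsion
    intro t
    refine ⟨⟨(Nat.card Q₁ : ℤ), mem_nonZeroDivisors_of_ne_zero (by exact_mod_cast Nat.card_pos.ne')⟩, ?_⟩
    show (Nat.card Q₁ : ℤ) • t = 0
    rw [natCast_zsmul]
    induction t using TensorProduct.induction_on with
    | zero => simp
    | tmul x y =>
      rw [TensorProduct.smul_tmul']
      have : Nat.card Q₁ • x = 0 := by
        obtain ⟨a, ha⟩ := QuotientGroup.mk_surjective (s := commutator Q₁) (Additive.toMul x)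
        have ha' : x = Additive.ofMul (Abelianization.of a) := congrArg Additive.ofMul ha.symm
        rw [ha', ← ofMul_pow, ← map_pow, pow_card_eq_one', map_one, ofMul_one]
      rw [this, TensorProduct.zero_tmul]
    | add x y hx hy => rw [smul_add, hx, hy, add_zero]
  exact h4

/-- The universal property of the tensor product for a pairing with values in a commutative group. -/
theorem exists_hom_abTensor {K : Type*} [CommGroup K] (c : Q₁ → Q₂ → K)
    (h1 : ∀ a a' b, c (a * a') b = c a b * c a' b) (h2 : ∀ a b b', c a (b * b') = c a b * c a b') :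
    ∃ f : AbTensor Q₁ Q₂ →* K, ∀ a b, f (abTmul a b) = c a b := by
  let c1 : Q₁ →* Q₂ →* K := MonoidHom.mk' (fun a => MonoidHom.mk' (c a) (h2 a)) (by
    intro a a'
    ext b
    exact h1 a a' b)
  let c2 : Q₁ →* (Abelianization Q₂ →* K) :=
    MonoidHom.mk' (fun a => Abelianization.lift (c1 a)) (by
      intro a a'
      apply Abelianization.hom_ext
      ext b
      simp)
  let c3 : Abelianization Q₁ →* (Abelianization Q₂ →* K) := Abelianization.lift c2
  let c4 : Additive (Abelianization Q₁) →+ (Additive (Abelianization Q₂) →+ Additive K) :=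
    AddMonoidHom.mk' (fun x => MonoidHom.toAdditive (c3 (Additive.toMul x))) (by
      intro x y
      ext z
      simp)
  let f : TensorProduct ℤ (Additive (Abelianization Q₁)) (Additive (Abelianization Q₂)) →+ Additive K :=
    TensorProduct.liftAddHom c4 (by
      intro r m n
      rw [map_zsmul, map_zsmul, AddMonoidHom.zsmul_apply])
  refine ⟨AddMonoidHom.toMultiplicativeLeft f, ?_⟩
  intro a b
  rfl

/-! ### The cover of the product -/

/-- The pairing on `Γ₁ × Γ₂`. -/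
def prodPairing {Γ₁ : Type*} {Γ₂ : Type*} [Group Γ₁] [Group Γ₂] (σ₁ : Γ₁ →* Q₁) (σ₂ : Γ₂ →* Q₂) :
    (Γ₁ × Γ₂) →* (Γ₁ × Γ₂) →* AbTensor Q₁ Q₂ :=
  MonoidHom.mk'
    (fun g => MonoidHom.mk' (fun h => abTmul (σ₁ g.1) (σ₂ h.2)) (by
      intro a b
      rw [Prod.snd_mul, map_mul, abTmul_mul_right]))
    (by
      intro a b
      refine MonoidHom.ext fun h => ?_
      simp only [MonoidHom.mk'_apply, MonoidHom.mul_apply, Prod.fst_mul, map_mul, abTmul_mul_left])

theorem prodPairing_apply {Γ₁ : Type*} {Γ₂ : Type*} [Group Γ₁] [Group Γ₂] (σ₁ : Γ₁ →* Q₁) (σ₂ : Γ₂ →* Q₂)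
    (g h : Γ₁ × Γ₂) : prodPairing σ₁ σ₂ g h = abTmul (σ₁ g.1) (σ₂ h.2) := rfl

/-- The stem extension of the product. -/
theorem isStemExtension_prod {Γ₁ : Type*} {Γ₂ : Type*} [Group Γ₁] [Group Γ₂] (σ₁ : Γ₁ →* Q₁) (σ₂ : Γ₂ →* Q₂)
    (h₁ : IsStemExtension σ₁) (h₂ : IsStemExtension σ₂) :
    IsStemExtension ((MonoidHom.prodMap σ₁ σ₂).comp (BilExt.proj (prodPairing σ₁ σ₂))) := by
  set β := prodPairing σ₁ σ₂
  have hβ : ∀ g h, β g h = abTmul (σ₁ g.1) (σ₂ h.2) := fun _ _ => rfl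
  have hker : ∀ x : BilExt β, x ∈ ((MonoidHom.prodMap σ₁ σ₂).comp (BilExt.proj β)).ker ↔
      σ₁ x.fst.1 = 1 ∧ σ₂ x.fst.2 = 1 := by
    intro x
    rw [MonoidHom.mem_ker]
    show ((σ₁ x.fst.1, σ₂ x.fst.2) : Q₁ × Q₂) = 1 ↔ _
    rw [Prod.ext_iff]; rfl
  refine ⟨?_, ?_, ?_⟩
  · rintro ⟨q₁, q₂⟩
    obtain ⟨a, rfl⟩ := h₁.1 q₁
    obtain ⟨b, rfl⟩ := h₂.1 q₂
    exact ⟨⟨(a, b), 1⟩, rfl⟩
  · intro x hx
    rw [hker] at hx
    have c1 := Subgroup.mem_center_iff.mp (h₁.2.1 (MonoidHom.mem_ker.mpr hx.1))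
    have c2 := Subgroup.mem_center_iff.mp (h₂.2.1 (MonoidHom.mem_ker.mpr hx.2))
    rw [Subgroup.mem_center_iff]
    intro y
    apply BilExt.ext
    · apply Prod.ext
      · exact c1 _
      · exact c2 _
    · show y.snd * x.snd * β y.fst x.fst = x.snd * y.snd * β x.fst y.fst
      rw [hβ, hβ, hx.1, hx.2, abTmul_one_left, abTmul_one_right, mul_comm y.snd]
  · -- the two partial sections
    let ι₁ : Γ₁ →* BilExt β :=
      { toFun := fun a => ⟨(a, 1), 1⟩
        map_one' := rfl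
        map_mul' := by
          intro a a'
          apply BilExt.ext
          · simp
          · show (1 : AbTensor Q₁ Q₂) = 1 * 1 * β (a, 1) (a', 1)
            rw [hβ, map_one, abTmul_one_right]; simp }
    let ι₂ : Γ₂ →* BilExt β :=
      { toFun := fun b => ⟨(1, b), 1⟩
        map_one' := rfl
        map_mul' := by
          intro b b'
          apply BilExt.ext
          · simp
          · show (1 : AbTensor Q₁ Q₂) = 1 * 1 * β (1, b) (1, b')
            rw [hβ, map_one, abTmul_one_left]; simp }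
    have hι₁ : (_root_.commutator Γ₁).map ι₁ ≤ _root_.commutator (BilExt β) := by
      rw [_root_.commutator_def, Subgroup.map_commutator]
      exact Subgroup.commutator_mono le_top le_top
    have hι₂ : (_root_.commutator Γ₂).map ι₂ ≤ _root_.commutator (BilExt β) := by
      rw [_root_.commutator_def, Subgroup.map_commutator]
      exact Subgroup.commutator_mono le_top le_top
    have hT : (BilExt.incl β).range ≤ _root_.commutator (BilExt β) := by
      rw [MonoidHom.range_eq_map, ← closure_abTmul, MonoidHom.map_closure, Subgroup.closure_le]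
      rintro _ ⟨t, ⟨a, b, rfl⟩, rfl⟩
      obtain ⟨a, rfl⟩ := h₁.1 a
      obtain ⟨b, rfl⟩ := h₂.1 b
      have h3 := BilExt.incl_mem_commutator β (a, 1) (1, b) (by simp)
      rw [hβ, hβ, map_one, abTmul_one_left, inv_one, mul_one] at h3
      exact h3
    intro x hx
    rw [hker] at hx
    have e : x = ι₁ x.fst.1 * ι₂ x.fst.2 * BilExt.incl β x.snd := by
      apply BilExt.ext
      · apply Prod.ext
        · show x.fst.1 = x.fst.1 * 1 * 1
          simp
        · show x.fst.2 = 1 * x.fst.2 * 1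
          simp
      · show x.snd = (1 * 1 * β (x.fst.1, 1) (1, x.fst.2)) * x.snd * β ((x.fst.1, 1) * (1, x.fst.2)) 1
        rw [map_one, hβ, hx.1, abTmul_one_left]
        simp
    rw [e]
    refine mul_mem (mul_mem ?_ ?_) (hT ⟨_, rfl⟩)
    · exact hι₁ ⟨_, h₁.2.2 (MonoidHom.mem_ker.mpr hx.1), rfl⟩
    · exact hι₂ ⟨_, h₂.2.2 (MonoidHom.mem_ker.mpr hx.2), rfl⟩

/-- The kernel of the stem extension of the product. -/
theorem ker_prod_equiv {Γ₁ : Type*} {Γ₂ : Type*} [Group Γ₁] [Group Γ₂] (σ₁ : Γ₁ →* Q₁) (σ₂ : Γ₂ →* Q₂) :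
    Nonempty (((MonoidHom.prodMap σ₁ σ₂).comp (BilExt.proj (prodPairing σ₁ σ₂))).ker ≃*
      (σ₁.ker × σ₂.ker × AbTensor Q₁ Q₂)) := by
  set β := prodPairing σ₁ σ₂
  have hβ : ∀ g h, β g h = abTmul (σ₁ g.1) (σ₂ h.2) := fun _ _ => rfl
  have hker : ∀ x : BilExt β, x ∈ ((MonoidHom.prodMap σ₁ σ₂).comp (BilExt.proj β)).ker ↔
      σ₁ x.fst.1 = 1 ∧ σ₂ x.fst.2 = 1 := by
    intro x
    rw [MonoidHom.mem_ker]
    show ((σ₁ x.fst.1, σ₂ x.fst.2) : Q₁ × Q₂) = 1 ↔ _
    rw [Prod.ext_iff]; rfl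
  refine ⟨{ toFun := fun x => (⟨x.1.fst.1, ((hker x.1).mp x.2).1⟩, ⟨x.1.fst.2, ((hker x.1).mp x.2).2⟩, x.1.snd)
            invFun := fun y => ⟨⟨(y.1.1, y.2.1.1), y.2.2⟩, (hker _).mpr ⟨y.1.2, y.2.1.2⟩⟩
            left_inv := fun x => rfl
            right_inv := fun y => rfl
            map_mul' := ?_ }⟩
  intro x y
  apply Prod.ext
  · rfl
  · apply Prod.ext
    · rfl
    · show x.1.snd * y.1.snd * β x.1.fst y.1.fst = x.1.snd * y.1.snd
      rw [hβ, ((hker x.1).mp x.2).1, abTmul_one_left, mul_one]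

/-- Commutators depend only on the images in the base of a central extension. -/
theorem commutator_congr_of_central {Γ Q : Type*} [Group Γ] [Group Q] (ξ : Γ →* Q) (hξ : ξ.ker ≤ center Γ)
    {x x' y y' : Γ} (hx : ξ x = ξ x') (hy : ξ y = ξ y') : ⁅x, y⁆ = ⁅x', y'⁆ := by
  have hk : x'⁻¹ * x ∈ center Γ := hξ (by rw [MonoidHom.mem_ker, map_mul, map_inv, hx, inv_mul_cancel])
  have hl : y'⁻¹ * y ∈ center Γ := hξ (by rw [MonoidHom.mem_ker, map_mul, map_inv, hy, inv_mul_cancel])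
  have ha : x = x' * (x'⁻¹ * x) := by group
  have hb : y = y' * (y'⁻¹ * y) := by group
  have h1 : ∀ (g k : Γ), k ∈ center Γ → ∀ h : Γ, ⁅g * k, h⁆ = ⁅g, h⁆ := by
    intro g k hk h
    have h2 : ⁅k, h⁆ = 1 := by
      rw [commutatorElement_eq_one_iff_mul_comm]; exact (Subgroup.mem_center_iff.mp hk h).symm
    rw [commutator_mul_left_of_central g k h (by rw [h2]; exact one_mem _), h2, mul_one]
  have h1' : ∀ (g k : Γ), k ∈ center Γ → ∀ h : Γ, ⁅h, g * k⁆ = ⁅h, g⁆ := by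
    intro g k hk h
    rw [← commutatorElement_inv (g * k) h, h1 g k hk h, commutatorElement_inv]
  rw [ha, hb, h1 _ _ hk, h1' _ _ hl]

theorem exists_surjective_prod {A B : Type*} [CommGroup A] [CommGroup B] (hA : HasSchurMultiplier Q₁ A)
    (hB : HasSchurMultiplier Q₂ B) {Δ : Type*} [Group Δ] (τ : Δ →* Q₁ × Q₂) (hτ : IsStemExtension τ) :
    ∃ π : A × B × AbTensor Q₁ Q₂ →* τ.ker, Function.Surjective π := by
  obtain ⟨hs, hc, hcomm⟩ := hτ
  let hK : CommGroup τ.ker :=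
    { (inferInstance : Group τ.ker) with
      mul_comm := fun a b => Subtype.ext ((Subgroup.mem_center_iff.mp (hc b.2)) a) }
  let p₁ : Δ →* Q₁ := (MonoidHom.fst Q₁ Q₂).comp τ
  let p₂ : Δ →* Q₂ := (MonoidHom.snd Q₁ Q₂).comp τ
  have hmemK : ∀ x, p₁ x = 1 → p₂ x = 1 → x ∈ τ.ker := fun x h1 h2 => Prod.ext h1 h2
  let Γ₁ : Subgroup Δ := p₂.ker
  let Γ₂ : Subgroup Δ := p₁.ker
  let ξ₁ : Γ₁ →* Q₁ := p₁.comp Γ₁.subtype
  let ξ₂ : Γ₂ →* Q₂ := p₂.comp Γ₂.subtype
  have hξ₁ : Function.Surjective ξ₁ := by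
    intro q
    obtain ⟨d, hd⟩ := hs (q, 1)
    exact ⟨⟨d, congrArg Prod.snd hd⟩, congrArg Prod.fst hd⟩
  have hξ₂ : Function.Surjective ξ₂ := by
    intro q
    obtain ⟨d, hd⟩ := hs (1, q)
    exact ⟨⟨d, congrArg Prod.fst hd⟩, congrArg Prod.snd hd⟩
  have hk₁ : ∀ x : Γ₁, x ∈ ξ₁.ker → x.1 ∈ τ.ker := fun x hx => hmemK x.1 hx x.2
  have hk₂ : ∀ x : Γ₂, x ∈ ξ₂.ker → x.1 ∈ τ.ker := fun x hx => hmemK x.1 x.2 hx
  have hc₁ : ξ₁.ker ≤ center Γ₁ := by
    intro x hx
    rw [Subgroup.mem_center_iff]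
    intro y
    exact Subtype.ext (Subgroup.mem_center_iff.mp (hc (hk₁ x hx)) y.1)
  have hc₂ : ξ₂.ker ≤ center Γ₂ := by
    intro x hx
    rw [Subgroup.mem_center_iff]
    intro y
    exact Subtype.ext (Subgroup.mem_center_iff.mp (hc (hk₂ x hx)) y.1)
  obtain ⟨f₁, hf₁⟩ := exists_hom_range_eq hA ξ₁ hξ₁ hc₁
  obtain ⟨f₂, hf₂⟩ := exists_hom_range_eq hB ξ₂ hξ₂ hc₂
  have hf₁' : ∀ a, f₁ a ∈ ξ₁.ker := fun a => by
    have : f₁ a ∈ f₁.range := ⟨a, rfl⟩
    rw [hf₁] at this; exact this.1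
  have hf₂' : ∀ a, f₂ a ∈ ξ₂.ker := fun a => by
    have : f₂ a ∈ f₂.range := ⟨a, rfl⟩
    rw [hf₂] at this; exact this.1
  let g₁ : A →* τ.ker := MonoidHom.mk' (fun a => ⟨(f₁ a).1, hk₁ _ (hf₁' a)⟩) (by
    intro a b; apply Subtype.ext; simp)
  let g₂ : B →* τ.ker := MonoidHom.mk' (fun a => ⟨(f₂ a).1, hk₂ _ (hf₂' a)⟩) (by
    intro a b; apply Subtype.ext; simp)
  -- the pairing
  have hpk : ∀ x y : Δ, p₂ x = 1 → p₁ y = 1 → ⁅x, y⁆ ∈ τ.ker := by
    intro x y hx hy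
    apply hmemK
    · rw [map_commutatorElement, hy, commutatorElement_one_right]
    · rw [map_commutatorElement, hx, commutatorElement_one_left]
  let s₁ : Q₁ → Δ := fun a => (hs (a, 1)).choose
  let s₂ : Q₂ → Δ := fun b => (hs (1, b)).choose
  have hs₁ : ∀ a, τ (s₁ a) = (a, 1) := fun a => (hs (a, 1)).choose_spec
  have hs₂ : ∀ b, τ (s₂ b) = (1, b) := fun b => (hs (1, b)).choose_spec
  have hck : ∀ a b, ⁅s₁ a, s₂ b⁆ ∈ τ.ker := fun a b =>
    hpk _ _ (congrArg Prod.snd (hs₁ a)) (congrArg Prod.fst (hs₂ b))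
  obtain ⟨g₃, hg₃⟩ := exists_hom_abTensor (Q₁ := Q₁) (Q₂ := Q₂) (K := τ.ker) (fun a b => ⟨⁅s₁ a, s₂ b⁆, hck a b⟩)
    (by
      intro a a' b
      apply Subtype.ext
      show ⁅s₁ (a * a'), s₂ b⁆ = ⁅s₁ a, s₂ b⁆ * ⁅s₁ a', s₂ b⁆
      rw [← commutator_mul_left_of_central _ _ _ (hc (hck a' b))]
      apply commutator_congr_of_central τ hc _ rfl
      rw [map_mul, hs₁, hs₁, hs₁]; simp)
    (by
      intro a b b'
      apply Subtype.ext
      show ⁅s₁ a, s₂ (b * b')⁆ = ⁅s₁ a, s₂ b⁆ * ⁅s₁ a, s₂ b'⁆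
      rw [← commutator_mul_right_of_central _ _ _ (hc (hck a b'))]
      apply commutator_congr_of_central τ hc rfl
      rw [map_mul, hs₂, hs₂, hs₂]; simp)
  refine ⟨g₁.coprod (g₂.coprod g₃), ?_⟩
  -- the commutator subgroup
  let C : Subgroup Δ := (g₃.range).map τ.ker.subtype
  have hCK : C ≤ τ.ker := by
    rintro _ ⟨x, _, rfl⟩; exact x.2
  have hCn : C.Normal := ⟨fun n hn g => by
    rw [Subgroup.mem_center_iff.mp (hc (hCK hn)) g]; simpa using hn⟩
  have hpair : ∀ x ∈ Γ₁, ∀ y ∈ Γ₂, ⁅x, y⁆ ∈ C := by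
    intro x hx y hy
    have e : ⁅x, y⁆ = ⁅s₁ (p₁ x), s₂ (p₂ y)⁆ := by
      apply commutator_congr_of_central τ hc
      · rw [hs₁]; exact Prod.ext rfl hx
      · rw [hs₂]; exact Prod.ext hy rfl
    rw [e]
    exact ⟨⟨_, hck _ _⟩, ⟨_, hg₃ _ _⟩, rfl⟩
  have hgen : Subgroup.closure (((Γ₁ : Set Δ) ∪ (Γ₂ : Set Δ)) ∪ (center Δ : Set Δ)) = ⊤ := by
    rw [eq_top_iff]
    intro x _
    obtain ⟨d, hd⟩ := hs (p₁ x, 1)
    have h1 : d ∈ Γ₁ := congrArg Prod.snd hd
    have h2 : d⁻¹ * x ∈ Γ₂ := by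
      show p₁ (d⁻¹ * x) = 1
      have : p₁ d = p₁ x := by
        have h4 : (τ d).1 = p₁ x := by rw [hd]
        exact h4
      rw [map_mul, map_inv, this, inv_mul_cancel]
    have h3 : x = d * (d⁻¹ * x) := by group
    rw [h3]
    exact mul_mem (Subgroup.subset_closure (Or.inl (Or.inl h1))) (Subgroup.subset_closure (Or.inl (Or.inr h2)))
  have hcom : _root_.commutator Δ ≤ (⁅Γ₁, Γ₁⁆ ⊔ ⁅Γ₂, Γ₂⁆) ⊔ C := by
    apply commutator_le_of_generators _ _ hgen
    rintro a (ha | ha) b (hb | hb)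
    · exact Subgroup.mem_sup_left (Subgroup.mem_sup_left (Subgroup.commutator_mem_commutator ha hb))
    · exact Subgroup.mem_sup_right (hpair a ha b hb)
    · rw [← commutatorElement_inv b a]
      exact Subgroup.mem_sup_right (inv_mem (hpair b hb a ha))
    · exact Subgroup.mem_sup_left (Subgroup.mem_sup_right (Subgroup.commutator_mem_commutator ha hb))
  rintro ⟨k, hk⟩
  obtain ⟨z, hz, c, hcC, hzc⟩ := Subgroup.mem_sup_of_normal_right.mp (hcom (hcomm hk))
  obtain ⟨x, hx, y, hy, hxy⟩ := Subgroup.mem_sup_of_normal_right.mp hz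
  have hxΓ : x ∈ Γ₁ := Subgroup.commutator_le_right Γ₁ Γ₁ hx
  have hyΓ : y ∈ Γ₂ := Subgroup.commutator_le_right Γ₂ Γ₂ hy
  have hτc : τ c = 1 := hCK hcC
  have hτ1 : τ x * τ y = 1 := by
    have : τ k = 1 := hk
    rw [← hzc, ← hxy, map_mul, map_mul, hτc, mul_one] at this
    exact this
  have hx1 : p₁ x = 1 := by
    have h1 := congrArg Prod.fst hτ1
    have h2 : p₁ y = 1 := hyΓ
    have h3 : p₁ x * p₁ y = 1 := h1
    rwa [h2, mul_one] at h3
  have hy1 : p₂ y = 1 := by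
    have h1 := congrArg Prod.snd hτ1
    have h2 : p₂ x = 1 := hxΓ
    have h3 : p₂ x * p₂ y = 1 := h1
    rwa [h2, one_mul] at h3
  have hsub : ∀ H : Subgroup Δ, (_root_.commutator H).map H.subtype = ⁅H, H⁆ := by
    intro H
    rw [_root_.commutator_def, Subgroup.map_commutator, ← MonoidHom.range_eq_map, Subgroup.range_subtype]
  have hx2 : (⟨x, hxΓ⟩ : Γ₁) ∈ f₁.range := by
    rw [hf₁]
    refine ⟨hx1, ?_⟩
    rw [← hsub] at hx
    obtain ⟨w, hw, hwx⟩ := hx
    have : w = ⟨x, hxΓ⟩ := Subtype.ext hwx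
    rw [← this]; exact hw
  have hy2 : (⟨y, hyΓ⟩ : Γ₂) ∈ f₂.range := by
    rw [hf₂]
    refine ⟨hy1, ?_⟩
    rw [← hsub] at hy
    obtain ⟨w, hw, hwx⟩ := hy
    have : w = ⟨y, hyΓ⟩ := Subtype.ext hwx
    rw [← this]; exact hw
  obtain ⟨a, ha⟩ := hx2
  obtain ⟨b, hb⟩ := hy2
  obtain ⟨c', ⟨t, ht⟩, hc'⟩ := hcC
  refine ⟨(a, b, t), ?_⟩
  apply Subtype.ext
  show (f₁ a).1 * ((f₂ b).1 * (g₃ t).1) = k
  rw [ha, hb, ht]
  show x * (y * c'.1) = k
  rw [← hzc, ← hxy, ← hc']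
  simp [mul_assoc]

/-- The Schur multiplier of a direct product. -/
theorem hasSchurMultiplier_prod {A B : Type w} [CommGroup A] [CommGroup B] (hA : HasSchurMultiplier Q₁ A)
    (hB : HasSchurMultiplier Q₂ B) : HasSchurMultiplier (Q₁ × Q₂) (A × B × AbTensor Q₁ Q₂) := by
  have hF1 := hasSchurMultiplier_finite_base hA
  have hF2 := hasSchurMultiplier_finite_base hB
  constructor
  · obtain ⟨⟨Γ₁, _, _, σ₁, h₁, ⟨e₁⟩⟩, _⟩ := hA
    obtain ⟨⟨Γ₂, _, _, σ₂, h₂, ⟨e₂⟩⟩, _⟩ := hB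
    obtain ⟨e⟩ := ker_prod_equiv σ₁ σ₂
    exact ⟨BilExt (prodPairing σ₁ σ₂), inferInstance, inferInstance, _, isStemExtension_prod σ₁ σ₂ h₁ h₂,
      ⟨e.trans (e₁.prodCongr (e₂.prodCongr (MulEquiv.refl _)))⟩⟩
  · intro Δ _ _ τ hτ
    exact exists_surjective_prod hA hB τ hτ

end

end Cfsg.Agent.SchurMult
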