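import Cfsg.Agent.SchurMult.Tools

/-!
# Stem extensions of dihedral and dicyclic groups
-/

set_option autoImplicit false

namespace Cfsg.Agent.SchurMult

open Subgroup
open scoped commutatorElement

variable {Γ : Type*} [Group Γ]

theorem commutator_eq_of_inverts (r s k : Γ) (hk : k ∈ center Γ) (h : s * r * s⁻¹ = r⁻¹ * k) :
    ⁅s, r⁆ = (r ^ 2)⁻¹ * k := by
  have hc := Subgroup.mem_center_iff.mp hk
  rw [commutatorElement_def, h, mul_assoc, ← hc r⁻¹, ← mul_assoc]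
  group

theorem zpowers_commutator_normal (r s k : Γ) (hk : k ∈ center Γ) (h : s * r * s⁻¹ = r⁻¹ * k)
    (hgen : closure ({r, s} ∪ (center Γ : Set Γ)) = ⊤) : (zpowers ⁅s, r⁆).Normal := by
  have hc := Subgroup.mem_center_iff.mp hk
  have h1 := commutator_eq_of_inverts r s k hk h
  rw [← Subgroup.normalizer_eq_top_iff, eq_top_iff, ← hgen, Subgroup.closure_le]
  have key : ∀ g : Γ, g * ⁅s, r⁆ * g⁻¹ = ⁅s, r⁆ ∨ g * ⁅s, r⁆ * g⁻¹ = (⁅s, r⁆)⁻¹ →
      g ∈ normalizer ((zpowers ⁅s, r⁆ : Subgroup Γ) : Set Γ) := by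
    intro g hg
    rw [Subgroup.mem_normalizer_iff_map_conj_eq]
    have h2 : (zpowers ⁅s, r⁆).map (MulAut.conj g).toMonoidHom = zpowers (g * ⁅s, r⁆ * g⁻¹) := by
      rw [MonoidHom.map_zpowers]; rfl
    refine Eq.trans h2 ?_
    rcases hg with hg | hg
    · rw [hg]
    · rw [hg, Subgroup.zpowers_inv]
  rintro g (hg | hg)
  · rcases hg with rfl | hg
    · apply key
      left
      rw [h1]
      have e1 : g * ((g ^ 2)⁻¹ * k) * g⁻¹ = (g ^ 2)⁻¹ * (g * k) * g⁻¹ := by group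
      rw [e1, hc g]; group
    · rw [Set.mem_singleton_iff] at hg
      subst hg
      apply key
      right
      rw [h1]
      have e1 : g * ((r ^ 2)⁻¹ * k) * g⁻¹ = (g * r * g⁻¹)⁻¹ * (g * r * g⁻¹)⁻¹ * (g * k * g⁻¹) := by group
      rw [e1, h, hc g, mul_inv_cancel_right]
      have hc' := Subgroup.mem_center_iff.mp ((center Γ).inv_mem hk)
      have e2 : (r⁻¹ * k)⁻¹ = r * k⁻¹ := by rw [mul_inv_rev, inv_inv, ← hc' r]
      rw [e2]
      have e3 : r * k⁻¹ * (r * k⁻¹) * k = r * (k⁻¹ * r) := by group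
      rw [e3, ← hc' r]
      have e4 : ((r ^ 2)⁻¹ * k)⁻¹ = k⁻¹ * (r * r) := by rw [mul_inv_rev, inv_inv, pow_two]
      rw [e4, ← hc' (r * r)]; group
  · apply key
    left
    have := Subgroup.mem_center_iff.mp hg ⁅s, r⁆
    rw [← this]; group

theorem commutator_le_zpowers_of_inverts (r s k : Γ) (hk : k ∈ center Γ) (h : s * r * s⁻¹ = r⁻¹ * k)
    (hgen : closure ({r, s} ∪ (center Γ : Set Γ)) = ⊤) : commutator Γ ≤ zpowers ⁅s, r⁆ := by
  have := zpowers_commutator_normal r s k hk h hgen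
  apply commutator_le_of_generators _ {r, s} hgen
  intro a ha b hb
  simp only [Set.mem_insert_iff, Set.mem_singleton_iff] at ha hb
  rcases ha with ha | ha <;> rcases hb with hb | hb <;> rw [ha, hb]
  · simp
  · rw [← commutatorElement_inv s r]
    exact Subgroup.inv_mem _ (Subgroup.mem_zpowers _)
  · exact Subgroup.mem_zpowers _
  · simp

theorem commutator_pow_eq_one_of_inverts (r s k : Γ) (hk : k ∈ center Γ) (h : s * r * s⁻¹ = r⁻¹ * k) (n : ℕ)
    (hn : s * r ^ n = r ^ n * s) : ⁅s, r⁆ ^ n = 1 := by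
  have hc : ∀ g, Commute g k := fun g => Subgroup.mem_center_iff.mp hk g
  rw [commutator_eq_of_inverts r s k hk h, (hc _).mul_pow]
  have h1 : r ^ n = (r⁻¹) ^ n * k ^ n := by
    rw [← (hc r⁻¹).mul_pow, ← h, conj_pow, hn, mul_inv_cancel_right]
  have h2 : k ^ n = r ^ n * r ^ n := by
    rw [inv_pow, eq_inv_mul_iff_mul_eq] at h1
    exact h1.symm
  rw [h2]
  group

/-- The elements of the kernel of a stem extension of a group `⟨ρ, τ⟩` with `τ ρ τ⁻¹ = ρ⁻¹`. -/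
theorem mem_ker_of_inverts {Q : Type*} [Group Q] (σ : Γ →* Q) (hc : σ.ker ≤ center Γ) (hcomm : σ.ker ≤ commutator Γ)
    (r s : Γ) (h : σ s * σ r * (σ s)⁻¹ = (σ r)⁻¹) (hgen : Subgroup.closure {σ r, σ s} = ⊤) (x : Γ) (hx : x ∈ σ.ker) :
    ∃ j : ℤ, x = ⁅s, r⁆ ^ j ∧ ((orderOf (σ r) : ℕ) : ℤ) ∣ 2 * j := by
  have hk : r * (s * r * s⁻¹) ∈ σ.ker := by
    rw [MonoidHom.mem_ker, map_mul, map_mul, map_mul, map_inv, h, mul_inv_cancel]
  have hsr : s * r * s⁻¹ = r⁻¹ * (r * (s * r * s⁻¹)) := by group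
  have hg : closure ({r, s} ∪ (center Γ : Set Γ)) = ⊤ := by
    apply closure_union_center σ hc
    rw [Set.image_pair]; exact hgen
  have h1 := commutator_le_zpowers_of_inverts r s _ (hc hk) hsr hg (hcomm hx)
  obtain ⟨j, hj⟩ := Subgroup.mem_zpowers_iff.mp h1
  refine ⟨j, hj.symm, ?_⟩
  have h2 : σ ⁅s, r⁆ = (σ r ^ 2)⁻¹ := by
    rw [commutator_eq_of_inverts r s _ (hc hk) hsr, map_mul, MonoidHom.mem_ker.mp hk, mul_one, map_inv, map_pow]
  have h3 : (σ r) ^ (2 * j) = 1 := by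
    have h4 : σ x = 1 := hx
    rw [← hj, map_zpow, h2] at h4
    rw [zpow_mul, zpow_ofNat, ← inv_eq_one, ← inv_zpow]
    exact h4
  exact orderOf_dvd_iff_zpow_eq_one.mpr h3

/-- The order of the commutator in a stem extension of a group `⟨ρ, τ⟩` with `τ ρ τ⁻¹ = ρ⁻¹`. -/
theorem commutator_pow_of_inverts {Q : Type*} [Group Q] (σ : Γ →* Q) (hc : σ.ker ≤ center Γ)
    (r s : Γ) (h : σ s * σ r * (σ s)⁻¹ = (σ r)⁻¹) (n : ℕ) (hn : s * r ^ n = r ^ n * s) : ⁅s, r⁆ ^ n = 1 := by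
  have hk : r * (s * r * s⁻¹) ∈ σ.ker := by
    rw [MonoidHom.mem_ker, map_mul, map_mul, map_mul, map_inv, h, mul_inv_cancel]
  have hsr : s * r * s⁻¹ = r⁻¹ * (r * (s * r * s⁻¹)) := by group
  exact commutator_pow_eq_one_of_inverts r s _ (hc hk) hsr n hn

end Cfsg.Agent.SchurMult
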