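import Cfsg.Agent.SchurMult.Basic

/-!
# The number of generators of the Schur multiplier
-/

set_option autoImplicit false

namespace Cfsg.Agent.SchurMult

universe u v w x

open Subgroup
open scoped commutatorElement

/-- Generators of the kernel of a homomorphism with image of finite index in a finitely generated abelian group. -/
theorem exists_generators_ker {K L : Type*} [AddCommGroup K] [AddCommGroup L] [Module.Finite ℤ L]
    (S : Finset K) (hS : Submodule.span ℤ (S : Set K) = ⊤) (q : K →ₗ[ℤ] L)
    (hfin : Finite (L ⧸ LinearMap.range q)) :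
    ∃ T : Finset K, T.card ≤ S.card - Module.finrank ℤ L ∧ Submodule.span ℤ (T : Set K) = LinearMap.ker q := by
  classical
  let p : (S → ℤ) →ₗ[ℤ] K := Fintype.linearCombination ℤ (fun s : S => (s : K))
  have hp : Function.Surjective p := by
    rw [← LinearMap.range_eq_top, Fintype.range_linearCombination]
    simpa using hS
  let P := q.comp p
  have hrange : LinearMap.range P = LinearMap.range q := by
    rw [LinearMap.range_comp, LinearMap.range_eq_top.mpr hp, Submodule.map_top]
  have h1 := (LinearMap.ker P).finrank_quotient_add_finrank
  rw [P.quotKerEquivRange.finrank_eq, hrange, Module.finrank_pi, Fintype.card_coe] at h1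
  have h2 := (LinearMap.range q).finrank_quotient_add_finrank
  have h3 : Module.finrank ℤ (L ⧸ LinearMap.range q) = 0 := by
    rw [Module.finrank_eq_zero_iff_isTorsion]
    intro x
    refine ⟨⟨(Nat.card (L ⧸ LinearMap.range q) : ℤ),
      mem_nonZeroDivisors_of_ne_zero (by exact_mod_cast Nat.card_pos.ne')⟩, ?_⟩
    show (Nat.card (L ⧸ LinearMap.range q) : ℤ) • x = 0
    rw [natCast_zsmul, card_nsmul_eq_zero']
  have h4 : Module.finrank ℤ (LinearMap.ker P) = S.card - Module.finrank ℤ L := by omega
  let b := Module.finBasis ℤ (LinearMap.ker P)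
  refine ⟨Finset.univ.image (fun i => p (b i)), ?_, ?_⟩
  · refine Finset.card_image_le.trans ?_
    rw [Finset.card_univ, Fintype.card_fin, h4]
  · have h5 : ((Finset.univ.image (fun i => p (b i)) : Finset K) : Set K)
        = p '' ((LinearMap.ker P).subtype '' (Set.range b)) := by
      ext x
      simp
    rw [h5, Submodule.span_image, Submodule.span_image, b.span_eq, Submodule.map_top, Submodule.range_subtype]
    ext x
    constructor
    · rintro ⟨v, hv, rfl⟩
      exact hv
    · intro hx
      obtain ⟨v, rfl⟩ := hp x
      exact ⟨v, hx, rfl⟩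

end Cfsg.Agent.SchurMult
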